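import Cfsg.Agent.Lib.Helper9.AschU.Base
import Cfsg.Agent.Lib.Helper1.Sp.K1a

set_option autoImplicit false

namespace Cfsg.Agent.Lib.Helper1.AschU

open Cfsg Cfsg.Geo Matrix Cfsg.Agent.Lib.Helper13 Cfsg.Agent.Lib.Helper13.Asch
  Cfsg.Agent.Lib.Helper5.SUAsch Cfsg.Agent.Lib.Helper9.AschU
open scoped Kronecker MatrixGroups

variable {F : Type*} [Field F] [Fintype F] {n q : ℕ}

/-- UK1 with the two black boxes A1, A2 as hypotheses -/
theorem uresidual_of_simple_aux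
    {H N : Subgroup (GL (Fin n) F)} (hH : H ≤ GU n F q)
    (A2 : ∀ N : Subgroup (GL (Fin n) F), N ≤ GU n F q → Nrm H N → env N = ⊤ →
      ∀ b : (Fin n → F) → (Fin n → F) → F, IsBilinearForm b → IsNondegenerateForm b →
        FixesForm (matrixSet N) b → UCls n q H)
    (A1 : ∀ N : Subgroup (GL (Fin n) F), Nrm H N → env N = ⊤ → ∀ F₀ : Subfield F, F₀ ≠ ⊤ →
      RealisableOver F₀ (matrixSet N) →
      (∀ x ∈ N, ∃ c ∈ F₀, ∀ u v, hermForm n F q ((x : Matrix (Fin n) (Fin n) F) *ᵥ u)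
        ((x : Matrix (Fin n) (Fin n) F) *ᵥ v) = c * hermForm n F q u v) → UCls n q H)
    (hQP : QP H) (h : MinNormal H N) (hperf : ¬ ⁅N, N⁆ ≤ scalars (Fin n) F)
    (hsimple : ∀ L : Subgroup (GL (Fin n) F), H ⊓ scalars (Fin n) F ≤ L → L ≤ N → Nrm N L →
      L = H ⊓ scalars (Fin n) F ∨ L = N) :
    UCls n q H ∨ InUnitaryResidualClass H := by
  classical
  obtain ⟨hnrmP, hPH, henv, hcore⟩ := Cfsg.Agent.Lib.Helper1.Sp.residual_core hQP h hperf hsimple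
  have hPU : ⁅N, N⁆ ≤ GU n F q := hPH.trans hH
  by_cases hsub : ∃ F₀ : Subfield F, F₀ ≠ ⊤ ∧ RealisableOver F₀ (matrixSet ⁅N, N⁆)
  · obtain ⟨F₀, hF₀, hr⟩ := hsub
    left
    refine A1 _ hnrmP henv F₀ hF₀ hr ?_
    intro x hx
    refine ⟨1, one_mem _, fun u v => ?_⟩
    rw [one_mul]
    exact hPU hx u v
  by_cases hsy : ∃ f : (Fin n → F) → (Fin n → F) → F,
      IsSymplecticForm f ∧ FixesForm (matrixSet ⁅N, N⁆) f
  · obtain ⟨f, hf, hfix⟩ := hsy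
    exact Or.inl (A2 _ hPU hnrmP henv f hf.bilinear hf.nondegenerate hfix)
  by_cases hq : ∃ Q : (Fin n → F) → F,
      IsNondegenerateQuadraticForm Q ∧ FixesQuadForm (matrixSet ⁅N, N⁆) Q
  · obtain ⟨Q, hQ, hfix⟩ := hq
    left
    refine A2 _ hPU hnrmP henv (QuadraticMap.polar Q) hQ.polar_bilinear hQ.nondegenerate ?_
    intro s hs u v
    simp only [QuadraticMap.polar]
    rw [← Matrix.mulVec_add, hfix s hs, hfix s hs, hfix s hs]
  right
  refine ⟨⁅N, N⁆, hcore ?_, hq, hsy⟩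
  intro F₀ hF₀ hr
  exact hsub ⟨F₀, hF₀, hr⟩

end Cfsg.Agent.Lib.Helper1.AschU
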